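import Mathlib

/-! A potential bound for the order of a permutation group. -/

set_option autoImplicit false
set_option linter.unusedSectionVars false

namespace Cfsg.Agent.H8.Pot

open MulAction Real

/-- the potential -/
noncomputable def psi (y : ℝ) : ℝ := (Real.log y) ^ 2 / 2 + 2 * (1 - 1 / Real.sqrt y)

theorem anti (f f' : ℝ → ℝ) (hd : ∀ x, 0 < x → HasDerivAt f (f' x) x) {r s : ℝ} (hr : 0 < r)
    (hrs : r ≤ s) (hn : ∀ x, r < x → x < s → f' x ≤ 0) : f s ≤ f r := by
  rcases hrs.eq_or_lt with rfl | h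
  · exact le_rfl
  obtain ⟨c, hc, e⟩ := exists_hasDerivAt_eq_slope f f' h
    (fun x hx => (hd x (hr.trans_le hx.1)).continuousAt.continuousWithinAt)
    (fun x hx => hd x (hr.trans hx.1))
  have := hn c hc.1 hc.2
  rw [e, div_nonpos_iff] at this
  rcases this with h1 | h1 <;> linarith [h1.1, h1.2]

/-- slope of the potential in the variable `s = √y` -/
noncomputable def dd (s : ℝ) : ℝ := 2 * Real.log s / s ^ 2 + 1 / s ^ 3

theorem dd_anti {r s : ℝ} (hr : 1 ≤ r) (hrs : r ≤ s) : dd s ≤ dd r := by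
  refine anti dd (fun x => (2 * x - 4 * x * Real.log x - 3) / x ^ 4) (fun x hx => ?_) (by linarith) hrs
    fun x h1 _ => ?_
  · have h1 := ((Real.hasDerivAt_log hx.ne').const_mul 2).div (hasDerivAt_pow 2 x) (by positivity)
    have h2 := (hasDerivAt_const x (1 : ℝ)).div (hasDerivAt_pow 3 x) (by positivity)
    have h3 : HasDerivAt dd _ x := h1.add h2
    refine h3.congr_deriv ?_
    simp only [Nat.cast_ofNat]
    field_simp
    ring
  · have hx : 0 < x := by linarith
    have h2 := Real.one_sub_inv_le_log_of_pos hx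
    have h3 : x * (1 - x⁻¹) ≤ x * Real.log x := mul_le_mul_of_nonneg_left h2 hx.le
    rw [mul_sub, mul_inv_cancel₀ hx.ne'] at h3
    exact div_nonpos_of_nonpos_of_nonneg (by nlinarith) (by positivity)

theorem tang {r s : ℝ} (hr : 1 ≤ r) (hrs : r ≤ s) :
    2 * Real.log r ^ 2 + 2 * (1 - 1 / r) ≤
      2 * Real.log s ^ 2 + 2 * (1 - 1 / s) + dd s * (r ^ 2 - s ^ 2) := by
  have := anti (fun x => dd s * x ^ 2 - (2 * Real.log x ^ 2 + 2 * (1 - 1 / x)))
    (fun x => 2 * x * (dd s - dd x)) (fun x hx => ?_) (r := r) (s := s) (by linarith) hrs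
    fun x h1 h2 => ?_
  · linarith
  · have h1 := ((Real.hasDerivAt_log hx.ne').pow 2).const_mul 2
    have h2 := (((hasDerivAt_const x (1 : ℝ)).div (hasDerivAt_id x) hx.ne').const_sub 1).const_mul 2
    have h3 : HasDerivAt (fun x => dd s * x ^ 2 - (2 * Real.log x ^ 2 + 2 * (1 - 1 / x))) _ x :=
      ((hasDerivAt_pow 2 x).const_mul (dd s)).sub (h1.add h2)
    refine h3.congr_deriv ?_
    simp only [Nat.cast_ofNat, id, dd]
    field_simp
    ring
  · have := dd_anti (r := x) (s := s) (by linarith) h2.le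
    have hx : 0 < x := by linarith
    nlinarith

theorem log_le {s : ℝ} (hs : 1 ≤ s) : 2 * Real.log s ≤ s - 1 / s := by
  have := anti (fun x => 2 * Real.log x - x + 1 / x) (fun x => -(1 - 1 / x) ^ 2) (fun x hx => ?_)
    (r := 1) (s := s) one_pos hs fun x _ _ => by nlinarith [sq_nonneg (1 - 1 / x)]
  · simp only [Real.log_one] at this
    linarith
  · have h1 := (((Real.hasDerivAt_log hx.ne').const_mul 2).sub (hasDerivAt_id x)).add
      ((hasDerivAt_const x (1 : ℝ)).div (hasDerivAt_id x) hx.ne')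
    have h3 : HasDerivAt (fun x => 2 * Real.log x - x + 1 / x) _ x := h1
    refine h3.congr_deriv ?_
    simp only [id]
    field_simp
    ring

theorem psi_sq {s : ℝ} (hs : 0 ≤ s) : psi (s ^ 2) = 2 * Real.log s ^ 2 + 2 * (1 - 1 / s) := by
  rw [psi, Real.sqrt_sq hs, Real.log_pow]
  push_cast
  ring

theorem psi_nonneg {y : ℝ} (hy : 1 ≤ y) : 0 ≤ psi y := by
  have h1 : 1 ≤ Real.sqrt y := Real.one_le_sqrt.2 hy
  have h2 : 1 / Real.sqrt y ≤ 1 := (div_le_one (by linarith)).2 h1
  unfold psi
  nlinarith [sq_nonneg (Real.log y)]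

theorem key {y : ℝ} (hy : 1 ≤ y) : ∃ d : ℝ, 0 ≤ d ∧ Real.log y ≤ d * (y - 1) ∧
    ∀ y', 1 ≤ y' → y' ≤ y → psi y' ≤ psi y + d * (y' - y) := by
  obtain ⟨s, hs, rfl⟩ : ∃ s : ℝ, 1 ≤ s ∧ y = s ^ 2 :=
    ⟨Real.sqrt y, Real.one_le_sqrt.2 hy, (Real.sq_sqrt (by linarith)).symm⟩
  have hl := Real.log_nonneg hs
  have hs0 : 0 < s := by linarith
  refine ⟨dd s, by unfold dd; positivity, ?_, fun y' h1 h2 => ?_⟩
  · have h1 := log_le hs
    have e : dd s * (s ^ 2 - 1) = 2 * Real.log s + (s - 1 / s - 2 * Real.log s) / s ^ 2 := by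
      unfold dd; field_simp; ring
    rw [e, Real.log_pow]
    have : 0 ≤ (s - 1 / s - 2 * Real.log s) / s ^ 2 := div_nonneg (by linarith) (by positivity)
    push_cast
    linarith
  · obtain ⟨r, hr, rfl⟩ : ∃ r : ℝ, 1 ≤ r ∧ y' = r ^ 2 :=
      ⟨Real.sqrt y', Real.one_le_sqrt.2 h1, (Real.sq_sqrt (by linarith)).symm⟩
    rw [psi_sq (by linarith), psi_sq hs0.le]
    exact tang hr (by nlinarith)

theorem psi_mono {y y' : ℝ} (h1 : 1 ≤ y') (h2 : y' ≤ y) : psi y' ≤ psi y := by
  obtain ⟨d, hd, -, h⟩ := key (h1.trans h2)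
  have := h y' h1 h2
  nlinarith

theorem avg {X A : Type*} [Group X] [Fintype X] [MulAction X A] (S : Finset A)
    (hS : ∀ (g : X), ∀ a ∈ S, g • a ∈ S) (tr : ∀ a ∈ S, ∀ b ∈ S, ∃ g : X, g • a = b) (φ : A → ℝ)
    (t : A) (ht : t ∈ S) :
    (S.card : ℝ) * ∑ g : X, φ (g • t) = Fintype.card X * ∑ a ∈ S, φ a := by
  have h1 : ∀ t' ∈ S, ∑ g : X, φ (g • t) = ∑ g : X, φ (g • t') := by
    intro t' ht'
    obtain ⟨h, rfl⟩ := tr t ht t' ht'
    rw [← Equiv.sum_comp (Equiv.mulRight h)]
    simp [mul_smul]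
  have h2 : ∀ g : X, ∑ a ∈ S, φ (g • a) = ∑ a ∈ S, φ a := fun g =>
    Finset.sum_nbij' (fun a => g • a) (fun a => g⁻¹ • a) (hS g) (hS g⁻¹) (by simp) (by simp)
      (by simp)
  calc (S.card : ℝ) * ∑ g : X, φ (g • t) = ∑ t' ∈ S, ∑ g : X, φ (g • t') := by
        rw [← Finset.sum_congr rfl h1]; simp
    _ = ∑ g : X, ∑ a ∈ S, φ a := by rw [Finset.sum_comm]; exact Finset.sum_congr rfl fun g _ => h2 g
    _ = _ := by simp

variable {X Ω : Type*} [Group X] [MulAction X Ω]

open Classical in
/-- total orbit size -/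
noncomputable def YY [Fintype Ω] (H : Subgroup X) : ℝ :=
  ∑ u : Ω, ∑ v : Ω, if v ∈ orbit H u then 1 else 0

theorem ind_sum {A : Type*} [Fintype A] (S : Set A) [DecidablePred (· ∈ S)] :
    (∑ v : A, if v ∈ S then (1 : ℝ) else 0) = S.ncard := by
  rw [Finset.sum_boole, Set.ncard_eq_toFinset_card']
  congr 2
  ext v; simp

theorem YY_eq [Fintype Ω] (H : Subgroup X) :
    YY (Ω := Ω) H = ∑ u : Ω, ((orbit H u).ncard : ℝ) :=
  by
  classical
  exact Finset.sum_congr rfl fun u _ => ind_sum _

theorem orb_pos [Finite Ω] (H : Subgroup X) (u : Ω) : (1 : ℝ) ≤ (orbit H u).ncard := by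
  exact_mod_cast (Set.ncard_pos (Set.toFinite _)).2 ⟨u, mem_orbit_self u⟩

theorem YY_ge [Fintype Ω] (H : Subgroup X) : (Fintype.card Ω : ℝ) ≤ YY (Ω := Ω) H := by
  rw [YY_eq]
  simpa using Finset.sum_le_sum (s := Finset.univ) fun u _ => orb_pos H u

theorem YY_mono [Fintype Ω] {K H : Subgroup X} (h : K ≤ H) : YY (Ω := Ω) K ≤ YY (Ω := Ω) H := by
  rw [YY_eq, YY_eq]
  refine Finset.sum_le_sum fun u _ => ?_
  exact_mod_cast Set.ncard_le_ncard (by rintro _ ⟨x, rfl⟩; exact ⟨⟨x, h x.2⟩, rfl⟩)

theorem log_sum [Fintype Ω] [Nonempty Ω] (H : Subgroup X) :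
    ∑ u : Ω, Real.log (orbit H u).ncard ≤
      Fintype.card Ω * Real.log (YY (Ω := Ω) H / Fintype.card Ω) := by
  have hN : (0 : ℝ) < Fintype.card Ω := by exact_mod_cast Fintype.card_pos
  have hY := YY_ge (Ω := Ω) H
  set y := YY (Ω := Ω) H / Fintype.card Ω with hy
  have hy0 : 0 < y := div_pos (by linarith) hN
  have h1 : ∀ u : Ω, Real.log (orbit H u).ncard ≤ Real.log y + ((orbit H u).ncard / y - 1) := by
    intro u
    have h2 : (0 : ℝ) < (orbit H u).ncard := by linarith [orb_pos H u]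
    have := Real.log_le_sub_one_of_pos (div_pos h2 hy0)
    rw [Real.log_div h2.ne' hy0.ne'] at this
    linarith
  refine (Finset.sum_le_sum fun u _ => h1 u).trans (le_of_eq ?_)
  rw [Finset.sum_add_distrib, Finset.sum_sub_distrib, ← Finset.sum_div, ← YY_eq]
  have : YY (Ω := Ω) H / y = Fintype.card Ω := by
    rw [hy]; field_simp [(show YY (Ω := Ω) H ≠ 0 by linarith)]
  simp [this]

theorem log_step [Finite X] [Finite Ω] (H : Subgroup X) {k : ℕ} (T : Fin k → Ω) :
    Real.log (Nat.card H) ≤ Real.log (Nat.card (H ⊓ ⨅ i, stabilizer X (T i) : Subgroup X)) +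
      ∑ i, Real.log (orbit H (T i)).ncard := by
  have h1 := Subgroup.relIndex_iInf_le (L := H) fun i => stabilizer X (T i)
  have h2 : ∀ i, (stabilizer X (T i)).relIndex H = (orbit H (T i)).ncard := fun i => by
    rw [← index_stabilizer]; rfl
  simp only [h2] at h1
  have h3 : Nat.card (H ⊓ ⨅ i, stabilizer X (T i) : Subgroup X) *
      (⨅ i, stabilizer X (T i)).relIndex H = Nat.card H := by
    rw [← Subgroup.inf_relIndex_left, ← Subgroup.card_mul_index ((H ⊓ ⨅ i, stabilizer X (T i)).subgroupOf H),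
      Nat.card_congr (Subgroup.subgroupOfEquivOfLe inf_le_left).toEquiv]
    rfl
  rw [← Real.log_prod (fun i _ => by linarith [orb_pos H (T i)]), ← Real.log_mul
    (by exact_mod_cast Nat.card_pos.ne')
    (Finset.prod_ne_zero_iff.2 fun i _ => by linarith [orb_pos H (T i)])]
  refine Real.log_le_log (by exact_mod_cast Nat.card_pos) ?_
  rw [← h3]
  exact_mod_cast Nat.mul_le_mul_left _ h1

theorem pot [Finite X] [Finite Ω] [FaithfulSMul X Ω] [IsPretransitive X Ω] {k : ℕ} (T : Fin k → Ω)
    {ε : ℝ} (hε : 0 < ε) (h : ∀ u v : Ω, u ≠ v → ε * Nat.card X ≤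
      {g : X | ∀ x : X, (∀ i, x • g • T i = g • T i) → x • u ≠ v}.ncard) :
    ε * Real.log (Nat.card X) ≤ k * psi (Nat.card Ω) := by
  classical
  have := Fintype.ofFinite X
  have := Fintype.ofFinite Ω
  rcases isEmpty_or_nonempty Ω with hΩ | hΩ
  · have : Subsingleton X := ⟨fun a b => FaithfulSMul.eq_of_smul_eq_smul (α := Ω) fun ω => isEmptyElim ω⟩
    rw [Nat.card_unique, Nat.card_of_isEmpty]
    simp [psi]
  have hN : (0 : ℝ) < Fintype.card Ω := by exact_mod_cast Fintype.card_pos
  have hX : (0 : ℝ) < Fintype.card X := by exact_mod_cast Fintype.card_pos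
  have y1 : ∀ H : Subgroup X, 1 ≤ YY (Ω := Ω) H / Fintype.card Ω := fun H =>
    (one_le_div hN).2 (YY_ge H)
  have main : ∀ H : Subgroup X,
      ε * Real.log (Nat.card H) ≤ k * psi (YY (Ω := Ω) H / Fintype.card Ω) := by
    intro H
    induction H using WellFoundedLT.induction with
    | ind H ih =>
    by_contra hc
    push Not at hc
    let K : X → Subgroup X := fun g => H ⊓ ⨅ i, stabilizer X (g • T i)
    have memK : ∀ g x, x ∈ K g → ∀ i, x • g • T i = g • T i := fun g x hx i =>
      (Subgroup.mem_iInf.1 hx.2) i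
    set y := YY (Ω := Ω) H / Fintype.card Ω with hy
    let t : X → ℝ := fun g => ε * ∑ i, Real.log (orbit H (g • T i)).ncard +
      k * psi (YY (Ω := Ω) (K g) / Fintype.card Ω)
    have t1 : ∀ g, K g < H → k * psi y < t g := by
      intro g hg
      have h1 := ih _ hg
      have h2 := mul_le_mul_of_nonneg_left (log_step H fun i => g • T i) hε.le
      simp only [t]
      rw [mul_add] at h2
      linarith
    have t2 : ∀ g, k * psi y ≤ t g := by
      intro g
      rcases (show K g ≤ H from inf_le_left).eq_or_lt with hg | hg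
      · simp only [t, hg]
        have : 0 ≤ ∑ i, Real.log (orbit H (g • T i)).ncard :=
          Finset.sum_nonneg fun i _ => Real.log_nonneg (orb_pos _ _)
        nlinarith
      · exact (t1 g hg).le
    have t3 : ∃ g, K g < H := by
      have hH : H ≠ ⊥ := by
        rintro rfl
        have := psi_nonneg (y1 ⊥)
        simp only [Subgroup.card_bot, Nat.cast_one, Real.log_one, mul_zero] at hc
        have : (0 : ℝ) ≤ k * psi y := by positivity
        linarith
      obtain ⟨⟨x, hx⟩, hx1⟩ := Subgroup.ne_bot_iff_exists_ne_one.1 hH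
      obtain ⟨u, hu⟩ : ∃ u : Ω, u ≠ x • u := by
        by_contra hu
        push Not at hu
        exact hx1 (Subtype.ext (FaithfulSMul.eq_of_smul_eq_smul (α := Ω) fun ω => by
          rw [OneMemClass.coe_one, one_smul]; exact (hu ω).symm))
      have h1 := h u _ hu
      have h2 : (0 : ℝ) < ε * Nat.card X := mul_pos hε (by exact_mod_cast Nat.card_pos)
      obtain ⟨g, hg⟩ := Set.nonempty_of_ncard_ne_zero (s := {g : X | ∀ x' : X,
        (∀ i, x' • g • T i = g • T i) → x' • u ≠ x • u}) (by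
          intro e
          rw [e] at h1
          simp only [Nat.cast_zero] at h1
          linarith)
      exact ⟨g, lt_of_le_of_ne inf_le_left fun e => hg x (memK g x (e ▸ hx : x ∈ K g)) rfl⟩
    have lo : Fintype.card X * (k * psi y) < ∑ g, t g := by
      obtain ⟨g, hg⟩ := t3
      have := Finset.sum_lt_sum (s := Finset.univ) (fun g _ => t2 g) ⟨g, Finset.mem_univ _, t1 g hg⟩
      simpa using this
    obtain ⟨d, d0, d1, d2⟩ := key (y1 H)
    have a1 : ∀ i, ∑ g : X, Real.log (orbit H (g • T i)).ncard ≤ Fintype.card X * Real.log y := by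
      intro i
      have h1 := avg (X := X) Finset.univ (fun _ _ _ => Finset.mem_univ _)
        (fun a _ b _ => exists_smul_eq X a b) (fun u : Ω => Real.log (orbit H u).ncard) (T i)
        (Finset.mem_univ _)
      rw [Finset.card_univ] at h1
      have h2 := mul_le_mul_of_nonneg_left (log_sum (Ω := Ω) H) hX.le
      refine le_of_mul_le_mul_left ?_ hN
      rw [h1]
      linarith
    have a2 : ∑ g : X, YY (Ω := Ω) (K g) ≤
        Fintype.card X * ((1 - ε) * YY (Ω := Ω) H + ε * Fintype.card Ω) := by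
      have h1 : ∀ u v : Ω, (∑ g : X, if v ∈ orbit (K g) u then (1 : ℝ) else 0) ≤
          Fintype.card X * ((1 - ε) * (if v ∈ orbit H u then (1 : ℝ) else 0) +
            ε * if u = v then 1 else 0) := by
        intro u v
        by_cases huv : u = v
        · subst huv
          simp [mem_orbit_self]
        by_cases hv : v ∈ orbit H u
        · have h2 := h u v huv
          rw [← ind_sum, Nat.card_eq_fintype_card] at h2
          have h3 : ∑ g : X, ((if v ∈ orbit (K g) u then (1 : ℝ) else 0) +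
              if g ∈ {g : X | ∀ x : X, (∀ i, x • g • T i = g • T i) → x • u ≠ v} then 1 else 0) ≤
              ∑ _g : X, (1 : ℝ) := Finset.sum_le_sum fun g _ => by
            split_ifs with h4 h5
            · obtain ⟨x, rfl⟩ := h4
              exact absurd rfl (h5 x (memK g x x.2))
            all_goals norm_num
          rw [Finset.sum_add_distrib] at h3
          simp only [Finset.sum_const, Finset.card_univ, nsmul_eq_mul, mul_one] at h3
          simp only [hv, huv, if_true, if_false]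
          linarith
        · have : ∀ g, v ∉ orbit (K g) u := by
            rintro g ⟨x, rfl⟩
            exact hv ⟨⟨x, x.2.1⟩, rfl⟩
          simp [this, hv, huv]
      unfold YY
      rw [Finset.sum_comm]
      refine (Finset.sum_le_sum fun u _ => (Finset.sum_comm.le.trans
        (Finset.sum_le_sum fun v _ => h1 u v))).trans (le_of_eq ?_)
      simp only [← Finset.mul_sum, Finset.sum_add_distrib, Finset.sum_ite_eq, Finset.mem_univ, if_true,
        Finset.sum_const, Finset.card_univ, nsmul_eq_mul, mul_one]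
      ring
    have a3 : ∑ g : X, psi (YY (Ω := Ω) (K g) / Fintype.card Ω) ≤
        Fintype.card X * (psi y - ε * Real.log y) := by
      have h1 : ∀ g : X, psi (YY (Ω := Ω) (K g) / Fintype.card Ω) ≤
          psi y + d * (YY (Ω := Ω) (K g) / Fintype.card Ω - y) := fun g =>
        d2 _ (y1 _) (div_le_div_of_nonneg_right (YY_mono inf_le_left) hN.le)
      refine (Finset.sum_le_sum fun g _ => h1 g).trans ?_
      rw [Finset.sum_add_distrib, ← Finset.mul_sum, Finset.sum_sub_distrib, ← Finset.sum_div]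
      simp only [Finset.sum_const, Finset.card_univ, nsmul_eq_mul]
      have h2 : (∑ g : X, YY (Ω := Ω) (K g)) / Fintype.card Ω ≤
          Fintype.card X * ((1 - ε) * y + ε) := by
        rw [div_le_iff₀ hN]
        refine a2.trans (le_of_eq ?_)
        rw [hy]; field_simp
      have h3 := mul_le_mul_of_nonneg_left h2 d0
      have h4 := mul_le_mul_of_nonneg_left d1 (mul_pos hX hε).le
      nlinarith
    have hi : ∑ g, t g ≤ Fintype.card X * (k * psi y) := by
      simp only [t]
      rw [Finset.sum_add_distrib, ← Finset.mul_sum, ← Finset.mul_sum, Finset.sum_comm]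
      have h1 := Finset.sum_le_sum (s := Finset.univ) fun i _ => a1 i
      simp only [Finset.sum_const, Finset.card_univ, Fintype.card_fin, nsmul_eq_mul] at h1
      have h2 := mul_le_mul_of_nonneg_left h1 hε.le
      have h3 := mul_le_mul_of_nonneg_left a3 (Nat.cast_nonneg (α := ℝ) k)
      nlinarith
    linarith
  have h1 := main ⊤
  rw [Subgroup.card_top] at h1
  refine h1.trans (mul_le_mul_of_nonneg_left (psi_mono (y1 ⊤) ?_) (Nat.cast_nonneg k))
  rw [div_le_iff₀ hN, YY_eq, Nat.card_eq_fintype_card]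
  have := Finset.sum_le_sum (s := Finset.univ) fun (u : Ω) _ =>
    (show ((orbit (⊤ : Subgroup X) u).ncard : ℝ) ≤ Fintype.card Ω by
      exact_mod_cast (Set.ncard_le_card _).trans Nat.card_eq_fintype_card.le)
  simpa using this

theorem pot1 [Finite X] [Finite Ω] [FaithfulSMul X Ω] [IsPretransitive X Ω] (d : ℕ)
    (h : ∀ u v : Ω, u ≠ v → d ≤ {z : Ω | ∀ x : X, x • z = z → x • u ≠ v}.ncard) :
    d * Real.log (Nat.card X) ≤ Nat.card Ω * psi (Nat.card Ω) := by
  classical
  have := Fintype.ofFinite X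
  have := Fintype.ofFinite Ω
  rcases isEmpty_or_nonempty Ω with hΩ | ⟨⟨ω⟩⟩
  · have : Subsingleton X := ⟨fun a b => FaithfulSMul.eq_of_smul_eq_smul (α := Ω) fun ω => isEmptyElim ω⟩
    rw [Nat.card_unique, Nat.card_of_isEmpty]
    simp
  have hN : (0 : ℝ) < Nat.card Ω := by
    have : Nonempty Ω := ⟨ω⟩
    exact_mod_cast Nat.card_pos
  rcases Nat.eq_zero_or_pos d with rfl | hd
  · have := psi_nonneg (y := Nat.card Ω) (by exact_mod_cast hN)
    simp only [Nat.cast_zero, zero_mul]
    positivity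
  have h1 := pot (X := X) (k := 1) (fun _ => ω) (ε := d / Nat.card Ω) (by positivity) fun u v huv => by
    have h2 := avg (X := X) Finset.univ (fun _ _ _ => Finset.mem_univ _)
      (fun a _ b _ => exists_smul_eq X a b)
      (fun z : Ω => if z ∈ {z : Ω | ∀ x : X, x • z = z → x • u ≠ v} then 1 else 0) ω (Finset.mem_univ _)
    rw [ind_sum, Finset.card_univ, ← Nat.card_eq_fintype_card, ← Nat.card_eq_fintype_card] at h2
    rw [← ind_sum, div_mul_eq_mul_div, div_le_iff₀ hN]
    have h3 : (d : ℝ) ≤ _ := Nat.cast_le.2 (h u v huv)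
    have h4 := mul_le_mul_of_nonneg_left h3 (Nat.cast_nonneg (α := ℝ) (Nat.card X))
    rw [← h2] at h4
    simp only [Set.mem_setOf_eq, forall_const] at h4 ⊢
    linarith
  rw [div_mul_eq_mul_div, div_le_iff₀ hN] at h1
  simp only [Nat.cast_one] at h1
  linarith

theorem pot2 [Finite X] [Finite Ω] [FaithfulSMul X Ω] (h2 : IsMultiplyPretransitive X Ω 2) {k : ℕ}
    (T : Fin k → Ω) (Δ : Set Ω) (hΔ : ∀ g : X, (∀ i, g • T i = T i) → ∀ ω ∈ Δ, g • ω ∈ Δ)
    (h0 : 0 < Δ.ncard) (h1 : Δ.ncard < Nat.card Ω) :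
    2 * (Δ.ncard : ℝ) * (Nat.card Ω - Δ.ncard) * Real.log (Nat.card X) ≤
      k * Nat.card Ω * (Nat.card Ω - 1) * psi (Nat.card Ω) := by
  classical
  have := Fintype.ofFinite X
  have := Fintype.ofFinite Ω
  have : IsPretransitive X Ω :=
    is_one_pretransitive_iff.1 (isMultiplyPretransitive_of_le (n := 2) (by omega) (by omega))
  have hs : (0 : ℝ) < Δ.ncard := by exact_mod_cast h0
  have hs' : (Δ.ncard : ℝ) < Nat.card Ω := by exact_mod_cast h1
  have hN1 : (1 : ℝ) < Nat.card Ω := by exact_mod_cast (show 1 < Nat.card Ω by omega)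
  have hD : (0 : ℝ) < Nat.card Ω * (Nat.card Ω - 1) := mul_pos (by linarith) (by linarith)
  have h3 := pot (X := X) T (ε := 2 * Δ.ncard * (Nat.card Ω - Δ.ncard) / (Nat.card Ω * (Nat.card Ω - 1)))
    (div_pos (mul_pos (by linarith) (by linarith)) hD) fun u v huv => by
      let a : Ω → ℝ := fun ω => if ω ∈ Δ then 1 else 0
      let φ : Ω × Ω → ℝ := fun p => a p.1 * (1 - a p.2) + (1 - a p.1) * a p.2
      have h4 := avg (X := X) (Finset.univ : Finset Ω).offDiag
        (fun g p hp => by simpa using hp)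
        (fun p hp q hq => by
          obtain ⟨g, h5, h6⟩ := (is_two_pretransitive_iff.1 h2)
            (show p.1 ≠ p.2 by simpa using hp) (show q.1 ≠ q.2 by simpa using hq)
          exact ⟨g, Prod.ext h5 h6⟩) φ (u, v) (by simpa using huv)
      have h5 : ∑ p ∈ (Finset.univ : Finset Ω).offDiag, φ p = 2 * Δ.ncard * (Nat.card Ω - Δ.ncard) := by
        rw [Finset.sum_subset (Finset.subset_univ _) (fun p _ hp => by
          have : p.1 = p.2 := by simpa using hp
          simp only [φ, a, this]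
          split_ifs <;> simp), Fintype.sum_prod_type]
        have e : ∑ ω, a ω = Δ.ncard := ind_sum Δ
        simp only [φ, Finset.sum_add_distrib, ← Finset.mul_sum, ← Finset.sum_mul, Finset.sum_sub_distrib,
          e, Finset.sum_const, Finset.card_univ, nsmul_eq_mul, mul_one, Nat.card_eq_fintype_card]
        ring
      have h6 : ((Finset.univ : Finset Ω).offDiag.card : ℝ) = Nat.card Ω * (Nat.card Ω - 1) := by
        rw [Finset.offDiag_card, Finset.card_univ, Nat.cast_sub (Nat.le_mul_self _),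
          Nat.card_eq_fintype_card]
        push_cast
        ring
      rw [h5, h6, ← Nat.card_eq_fintype_card] at h4
      rw [div_mul_eq_mul_div, div_le_iff₀ hD]
      have h7 : ∑ g : X, φ (g • (u, v)) ≤ ∑ g : X,
          if g ∈ {g : X | ∀ x : X, (∀ i, x • g • T i = g • T i) → x • u ≠ v} then (1 : ℝ) else 0 := by
        rw [← Equiv.sum_comp (Equiv.inv X)]
        refine Finset.sum_le_sum fun g _ => ?_
        by_cases hg : g ∈ {g : X | ∀ x : X, (∀ i, x • g • T i = g • T i) → x • u ≠ v}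
        · simp only [hg, if_true, φ, a]
          split_ifs <;> norm_num
        · rw [if_neg hg]
          simp only [Set.mem_setOf_eq, not_forall, not_not] at hg
          obtain ⟨x, hx, rfl⟩ := hg
          have e1 : ∀ i, (g⁻¹ * x * g) • T i = T i := fun i => by
            rw [mul_smul, mul_smul, hx, inv_smul_smul]
          have e2 : ∀ i, (g⁻¹ * x * g)⁻¹ • T i = T i := fun i => inv_smul_eq_iff.2 (e1 i).symm
          have e3 : g⁻¹ • u ∈ Δ ↔ g⁻¹ • x • u ∈ Δ := by
            refine ⟨fun h => ?_, fun h => ?_⟩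
            · simpa [mul_smul] using hΔ _ e1 _ h
            · simpa [mul_smul] using hΔ _ e2 _ h
          simp only [φ, a, Equiv.inv_apply, Prod.smul_mk, ← e3]
          split_ifs <;> norm_num
      rw [ind_sum] at h7
      nlinarith
  rw [div_mul_eq_mul_div, div_le_iff₀ hD] at h3
  linarith

end Cfsg.Agent.H8.Pot
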