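import Cfsg.Agent.H8.Ch.Pot
import Cfsg.Agent.H6.Ch.Blk
import Cfsg.Agent.H9.Ch.NI0

/-! The potential bound in the form used by the arithmetic statement. -/

set_option autoImplicit false

namespace Cfsg.Agent.H8.Pot

open MulAction
open scoped Pointwise

theorem potS {J Ω : Type} [Group J] [Finite J] [MulAction J Ω] [Finite Ω] [FaithfulSMul J Ω]
    (h2 : IsMultiplyPretransitive J Ω 2) (k s : ℕ) (h : H6.Ch.Sep J Ω k s) (h0 : 0 < s)
    (h1 : s < Nat.card Ω) :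
    2 * (s : ℝ) * ((Nat.card Ω : ℝ) - s) * Real.log (Nat.card J) ≤
      k * (Nat.card Ω : ℝ) * ((Nat.card Ω : ℝ) - 1) * H9.Ch.psi (Nat.card Ω) := by
  obtain ⟨T, Δ, rfl, h⟩ := h
  exact pot2 h2 T Δ (fun g hg ω hω => h g hg ▸ Set.smul_mem_smul_set hω) h0 h1

end Cfsg.Agent.H8.Pot
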